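import Cfsg.Agent.H143.Co3FiveData
import Cfsg.Agent.H143.RowCo3

/-!
# `Co₃` : centralizers of elements of prime order at least five (helper143)

* `five_inv` : the nontrivial central elements of the Sylow 5-subgroups commute with involutions;
* `even_or_lt` : `|C(y)|` is even or `3 |C(y)| < 1024`, `y` of prime order at least five.
-/

set_option autoImplicit false

namespace Cfsg.Agent.H143.Co3Five

open Subgroup Cfsg Cfsg.Agent.Lib.PackMat Cfsg.Agent.SporRec.LeechMod3 Cfsg.Agent.SporRec.LeechChain
  Cfsg.Agent.SporRec.Co3.MatData Cfsg.Agent.SporRec.Co3.ChainData Cfsg.Agent.SporRec.Co3.Chain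
  Cfsg.Agent.H526.PcNf Cfsg.Agent.H143.Co3FiveData
open Cfsg.Agent.H526.Co3Data (V rowV gs15)
open Cfsg.Agent.H526.Co3Three (L el1_spec)
open Cfsg.Agent.H143.Co3Inv (Inv exists_code finG3)
open Cfsg.Agent.H149.Sp (P5)

universe u

/-- the elements -/
noncomputable def e0 : G3 := Classical.choose (exists_code word0)
@[inherit_doc e0] noncomputable def e1 : G3 := Classical.choose (exists_code word1)
@[inherit_doc e0] noncomputable def e2 : G3 := Classical.choose (exists_code word2)
@[inherit_doc e0] noncomputable def e3 : G3 := Classical.choose (exists_code word3)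

theorem e0_spec : okG cfg d0 = true ∧ rho (e0 : Co0) = mt d0 := Classical.choose_spec (exists_code word0)
theorem e1_spec : okG cfg d1 = true ∧ rho (e1 : Co0) = mt d1 := Classical.choose_spec (exists_code word1)
theorem e2_spec : okG cfg d2 = true ∧ rho (e2 : Co0) = mt d2 := Classical.choose_spec (exists_code word2)
theorem e3_spec : okG cfg d3 = true ∧ rho (e3 : Co0) = mt d3 := Classical.choose_spec (exists_code word3)

/-- the letters -/
noncomputable def K (i : ℕ) : G3 := if i < 8 then L i else if i = 8 then e0 else if i = 9 then e1 else if i = 10 then e2 else e3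

theorem spec5 : ∀ k < gs12.length, okG cfg (gs12.getD k 0) = true ∧ rho (K k : Co0) = mt (gs12.getD k 0) := by
  intro k hk
  have hk' : k < 12 := hk
  by_cases h8 : k < 8
  · have h1 := (el1_spec k (by omega)).2
    have h2 : gs12.getD k 0 = gs15.getD k 0 := by
      interval_cases k <;> rfl
    rw [h2]
    have h3 : K k = L k := if_pos h8
    rw [h3]
    exact h1
  · have h3 : k = 8 ∨ k = 9 ∨ k = 10 ∨ k = 11 := by omega
    rcases h3 with rfl | rfl | rfl | rfl
    · exact e0_spec
    · exact e1_spec
    · exact e2_spec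
    · exact e3_spec

theorem coe_prod5 (u : List ℕ) : (((u.map K).prod : G3) : Co0) = (u.map fun i => (K i : Co0)).prod := by
  induction u with
  | nil => rfl
  | cons a u ih => rw [List.map_cons, List.prod_cons, List.map_cons, List.prod_cons, Subgroup.coe_mul, ih]

theorem eq_of_chk5 {u v : List ℕ} (h : chk5 u v = true) : (u.map K).prod = (v.map K).prod := by
  apply Subtype.ext
  rw [coe_prod5, coe_prod5]
  exact word_eq (gs := gs12) (g := fun i => (K i : Co0)) spec5 h

theorem key5_eq {u v : List ℕ} (hu : wok gs12 u = true) (hv : wok gs12 v = true) (h : (u.map K).prod = (v.map K).prod) :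
    key5 u = key5 v := by
  have h0 : (u.map fun i => (K i : Co0)).prod = (v.map fun i => (K i : Co0)).prod := by
    rw [← coe_prod5, ← coe_prod5, h]
  obtain ⟨k1, k2⟩ := word_rho (g := fun i => (K i : Co0)) spec5 hu
  obtain ⟨l1, l2⟩ := word_rho (g := fun i => (K i : Co0)) spec5 hv
  obtain ⟨m1, m2⟩ := run_rv k1 (okR_of rowV)
  obtain ⟨n1, n2⟩ := run_rv l1 (okR_of rowV)
  apply rv_inj m1 n1
  rw [m2, n2, ← k2, ← l2, h0]

/-- the polycyclic sequence -/
noncomputable def q (i : ℕ) : G3 := K (8 + i)

theorem q0 : q 0 = e0 := rfl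
theorem q1 : q 1 = e1 := rfl
theorem q2 : q 2 = e2 := rfl

theorem K8 : K 8 = e0 := rfl
theorem K9 : K 9 = e1 := rfl
theorem K10 : K 10 = e2 := rfl
theorem K11 : K 11 = e3 := rfl

theorem e0_five : e0 ^ 5 = 1 := by
  have h := eq_of_chk5 p0
  simpa [K8, pow_succ, mul_assoc] using h

theorem e1_five : e1 ^ 5 = 1 := by
  have h := eq_of_chk5 p1
  simpa [K9, pow_succ, mul_assoc] using h

theorem e2_five : e2 ^ 5 = 1 := by
  have h := eq_of_chk5 p2
  simpa [K10, pow_succ, mul_assoc] using h

theorem e01 : e0 * e1 = e1 * (e2 * (e2 * (e2 * e0))) := by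
  have h := eq_of_chk5 r01
  simpa [K8, K9, K10] using h

theorem e02 : e0 * e2 = e2 * e0 := by
  have h := eq_of_chk5 r02
  simpa [K8, K10] using h

theorem e12 : e1 * e2 = e2 * e1 := by
  have h := eq_of_chk5 r12
  simpa [K9, K10] using h

theorem t_sq' : e3 * e3 = 1 := by
  have h := eq_of_chk5 t_sq
  simpa [K11] using h

theorem t_z' : e3 * e2 = e2 * e3 := by
  have h := eq_of_chk5 t_z
  simpa [K10, K11] using h

theorem ne_of_key5 {u v : List ℕ} (hu : wok gs12 u = true) (hv : wok gs12 v = true)
    (h : (!Nat.beq (key5 u) (key5 v)) = true) : (u.map K).prod ≠ (v.map K).prod := by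
  intro h1
  have h2 := key5_eq hu hv h1
  rw [h2, Bool.not_eq_true', ← Bool.not_eq_true, Nat.beq_eq] at h
  exact h rfl

theorem t_ne' : e3 ≠ 1 := by
  have h := ne_of_key5 (u := [11]) (v := []) (by decide) (by decide) t_ne
  simpa [K11] using h

theorem e0_e1 : e0 * e1 ≠ e1 * e0 := by
  have h := ne_of_key5 (u := [8, 9]) (v := [9, 8]) (by decide) (by decide) q_ne
  simpa [K8, K9] using h

theorem pc5 : Pc 5 3 q where
  pow i hi := by
    interval_cases i
    · exact e0_five
    · exact e1_five
    · exact e2_five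
  rel i j hij hj := by
    have h2 : q 2 ∈ closure (Sk 3 q (i + 1)) := subset_closure ⟨2, by omega, by omega, rfl⟩
    by_cases hj2 : j = 2
    · subst hj2
      have e : q i * q 2 * (q i)⁻¹ = q 2 := by
        rw [mul_inv_eq_iff_eq_mul]
        interval_cases i
        · exact e02
        · exact e12
      rw [e]
      exact h2
    · obtain ⟨rfl, rfl⟩ : i = 0 ∧ j = 1 := by omega
      have e : q 0 * q 1 * (q 0)⁻¹ = q 1 * (q 2 * (q 2 * q 2)) := by
        rw [mul_inv_eq_iff_eq_mul]
        show e0 * e1 = e1 * (e2 * (e2 * e2)) * e0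
        rw [e01]
        simp only [mul_assoc]
      rw [e]
      exact mul_mem (subset_closure ⟨1, by omega, by omega, rfl⟩) (mul_mem h2 (mul_mem h2 h2))

theorem prod_w5 (N : ℕ) : ((w5 N).map K).prod = ((nfw 5 3 0 N).map q).prod := by
  rw [w5, List.map_map]
  rfl

theorem wok5_w5 (N : ℕ) : wok gs12 (w5 N) = true := by
  unfold wok w5
  rw [List.all_eq_true]
  intro k hk
  obtain ⟨i, hi, rfl⟩ := List.mem_map.1 hk
  have := nfw_mem hi
  rw [Nat.blt_eq]
  show 8 + i < 12
  omega

theorem wok5_append {u v : List ℕ} (hu : wok gs12 u = true) (hv : wok gs12 v = true) : wok gs12 (u ++ v) = true := by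
  unfold wok at *
  rw [List.all_append, hu, hv]; rfl

/-- the centre -/
theorem centre5 {N : ℕ} (hN : N < 125)
    (hc : ∀ k < 3, ((nfw 5 3 0 N).map q).prod * q k = q k * ((nfw 5 3 0 N).map q).prod) : N % 25 = 0 := by
  have h := List.all_eq_true.1 cen_all5 N (List.mem_range.2 hN)
  unfold cenOK5 at h
  rw [Bool.or_eq_true, Nat.beq_eq] at h
  rcases h with h | h
  · exact h
  · exfalso
    rw [List.any_eq_true] at h
    obtain ⟨k, hk, h⟩ := h
    have hk2 : k < 2 := by
      simp only [List.mem_cons, List.not_mem_nil, or_false] at hk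
      omega
    refine ne_of_key5 ?_ ?_ h ?_
    · exact wok5_append (wok5_w5 N) (by interval_cases k <;> decide)
    · exact wok5_append (u := [8 + k]) (by interval_cases k <;> decide) (wok5_w5 N)
    · have h1 := hc k (by omega)
      rw [List.map_append, List.prod_append, List.map_cons, List.prod_cons, List.map_nil, List.prod_nil, mul_one,
        List.map_cons, List.prod_cons, prod_w5]
      exact h1

theorem card_R : 5 ^ 3 ≤ Nat.card ↥(closure (Sk 3 q 0)) := by
  have : Fact (Nat.Prime 5) := ⟨by norm_num⟩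
  have hpg := pc5.isPGroup 3 0 (by norm_num)
  obtain ⟨n, hn⟩ := IsPGroup.iff_card.1 hpg
  rw [hn]
  refine Nat.pow_le_pow_right (by norm_num) ?_
  by_contra hcon
  push Not at hcon
  have h0 : e0 ∈ closure (Sk 3 q 0) := subset_closure ⟨0, by omega, by omega, rfl⟩
  have h1 : e1 ∈ closure (Sk 3 q 0) := subset_closure ⟨1, by omega, by omega, rfl⟩
  have hcomm : ∀ a b : ↥(closure (Sk 3 q 0)), a * b = b * a := by
    have h3 : n = 0 ∨ n = 1 ∨ n = 2 := by omega
    rcases h3 with rfl | rfl | rfl
    · rw [pow_zero] at hn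
      intro a b
      have := (Nat.card_eq_one_iff_unique.1 hn).1
      exact Subsingleton.elim _ _
    · have hcyc := isCyclic_of_prime_card (p := 5) (by rw [hn, pow_one])
      let _ := hcyc.commGroup
      exact fun a b => mul_comm a b
    · let _ := IsPGroup.commGroupOfCardEqPrimeSq (p := 5) hn
      exact fun a b => mul_comm a b
  exact e0_e1 (congrArg Subtype.val (hcomm ⟨e0, h0⟩ ⟨e1, h1⟩))

theorem exists_sylow5 : ∃ S : Sylow 5 G3, (S : Subgroup G3) = closure (Sk 3 q 0) := by
  have : Fact (Nat.Prime 5) := ⟨by norm_num⟩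
  have hpg := pc5.isPGroup 3 0 (by norm_num)
  obtain ⟨S, hS⟩ := hpg.exists_le_sylow
  refine ⟨S, ?_⟩
  symm
  refine Subgroup.eq_of_le_of_card_ge hS ?_
  refine le_trans ?_ card_R
  obtain ⟨m, hm⟩ := IsPGroup.iff_card.mp S.2
  rw [hm]
  refine Nat.pow_le_pow_right (by norm_num) ?_
  by_contra hcon
  push Not at hcon
  have h1 : 5 ^ 4 ∣ Nat.card G3 := (pow_dvd_pow 5 hcon).trans (by rw [← hm]; exact card_subgroup_dvd_card _)
  rw [isCo3_G3.2] at h1
  norm_num at h1

/-- **the central elements of the Sylow 5-subgroups commute with involutions** -/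
theorem five_inv {x : G3} (S : Sylow 5 G3) (hx : x ∈ S) (hc : ∀ y ∈ S, x * y = y * x) : Inv x := by
  have : Fact (Nat.Prime 5) := ⟨by norm_num⟩
  obtain ⟨R, hR⟩ := exists_sylow5
  obtain ⟨g, hg⟩ := MulAction.exists_smul_eq G3 S R
  have hx' : g * x * g⁻¹ ∈ closure (Sk 3 q 0) := by
    rw [← hR, ← hg]
    exact ⟨x, hx, rfl⟩
  obtain ⟨N, hN, e⟩ := pc5.exists_nf' (by norm_num) hx'
  have hcen : ∀ k < 3, ((nfw 5 3 0 N).map q).prod * q k = q k * ((nfw 5 3 0 N).map q).prod := by
    intro k hk
    rw [← e]
    have h1 : q k ∈ (R : Subgroup G3) := by rw [hR]; exact subset_closure ⟨k, by omega, hk, rfl⟩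
    rw [← hg] at h1
    obtain ⟨y, hy, h2⟩ := h1
    have h3 : q k = g * y * g⁻¹ := h2.symm
    rw [h3]
    calc g * x * g⁻¹ * (g * y * g⁻¹) = g * (x * y) * g⁻¹ := by group
      _ = g * (y * x) * g⁻¹ := by rw [hc y hy]
      _ = g * y * g⁻¹ * (g * x * g⁻¹) := by group
  have hN25 := centre5 hN hcen
  have hI : Inv (g * x * g⁻¹) := by
    refine ⟨e3, t_sq', t_ne', ?_⟩
    rw [e]
    obtain ⟨j, rfl⟩ : ∃ j, N = 25 * j := ⟨N / 25, by omega⟩
    have e2' : ((nfw 5 3 0 (25 * j)).map q).prod = e2 ^ (j % 5) := by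
      have h1 : nfw 5 3 0 (25 * j) = List.replicate (j % 5) 2 := by
        have h2 : 25 * j % 5 = 0 := by omega
        have h3 : 25 * j / 5 = 5 * j := by omega
        have h4 : 5 * j % 5 = 0 := by omega
        have h5 : 5 * j / 5 = j := by omega
        simp [nfw, h2, h3, h4, h5]
      rw [h1, List.map_replicate, List.prod_replicate, q2]
    rw [e2']
    exact ((Commute.pow_right (show Commute e3 e2 from t_z') _)).eq
  exact hI.conj (g := g⁻¹) (by group)

/-- `|C(y)| = 375` is impossible -/
theorem even_or_le {y : G3} (hy : P5 (orderOf y)) :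
    Even (Nat.card ↥(centralizer ({y} : Set G3))) ∨ Nat.card ↥(centralizer ({y} : Set G3)) ≤ 125 := by
  rcases Nat.even_or_odd (Nat.card ↥(centralizer ({y} : Set G3))) with he | ho
  · exact Or.inl he
  right
  rcases RowCo3.centralizer_dvd hy with h | h | h | h
  · have h1 : Nat.card ↥(centralizer ({y} : Set G3)) ∣ 375 :=
      (Nat.Coprime.pow_right 10 (Nat.coprime_two_right.2 ho)).dvd_of_dvd_mul_left
        (h.trans (dvd_of_eq (show 2 ^ 10 * 3 * 5 ^ 3 = 2 ^ 10 * 375 by norm_num)))
    have h2 : Nat.card ↥(centralizer ({y} : Set G3)) ≠ 375 := by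
      intro hc
      have h5 : Fact (Nat.Prime 5) := ⟨by norm_num⟩
      have hoy : orderOf y ∣ 375 := by
        rw [← hc]
        exact Subgroup.orderOf_dvd_natCard _ (RowCo3.mem_cent.2 rfl)
      have hoy5 : orderOf y = 5 := by
        rcases hy with h | h | h | h | h
        · exact h
        all_goals
          rw [h] at hoy
          norm_num at hoy
      let ym : ↥(centralizer ({y} : Set G3)) := ⟨y, RowCo3.mem_cent.2 rfl⟩
      have hz : IsPGroup 5 (zpowers ym) := IsPGroup.of_card (n := 1) (by
        rw [Nat.card_zpowers, pow_one, ← hoy5]; exact (Subgroup.orderOf_coe ym).symm)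
      obtain ⟨T, hT⟩ := hz.exists_le_sylow
      have hcT : Nat.card ↥(T : Subgroup ↥(centralizer ({y} : Set G3))) = 5 ^ 3 := by
        rw [Sylow.card_eq_multiplicity, hc]
        have : Nat.factorization 375 5 = 3 := by
          rw [show 375 = 5 ^ 3 * 3 by norm_num, Nat.factorization_mul (by norm_num) (by norm_num),
            Nat.factorization_pow]
          simp [Nat.Prime.factorization_self (show Nat.Prime 5 by norm_num),
            Nat.factorization_eq_zero_of_not_dvd (show ¬ 5 ∣ 3 by norm_num)]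
        rw [this]
      obtain ⟨S, hS⟩ := ((T.2).map (centralizer ({y} : Set G3)).subtype).exists_le_sylow
      have hSe : (S : Subgroup G3) = (T : Subgroup _).map (centralizer ({y} : Set G3)).subtype := by
        symm
        refine Subgroup.eq_of_le_of_card_ge hS ?_
        rw [Subgroup.card_map_of_injective (Subgroup.subtype_injective _), hcT]
        obtain ⟨m, hm⟩ := IsPGroup.iff_card.mp S.2
        rw [hm]
        refine Nat.pow_le_pow_right (by norm_num) ?_
        by_contra hcon
        push Not at hcon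
        have h1 : 5 ^ 4 ∣ Nat.card G3 := (pow_dvd_pow 5 hcon).trans (by rw [← hm]; exact card_subgroup_dvd_card _)
        rw [isCo3_G3.2] at h1
        norm_num at h1
      obtain ⟨t, ht, ht1, hty⟩ := five_inv (x := y) S (by
        show y ∈ (S : Subgroup G3)
        rw [hSe]
        exact ⟨ym, hT (mem_zpowers ym), rfl⟩) (by
        intro s hs
        have hs' : s ∈ (S : Subgroup G3) := hs
        rw [hSe] at hs'
        obtain ⟨s', -, rfl⟩ := hs'
        exact (RowCo3.mem_cent.1 s'.2).symm)
      have h2 : orderOf t = 2 := orderOf_eq_prime (by rw [pow_two]; exact ht) ht1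
      have h4 := Subgroup.orderOf_dvd_natCard (centralizer ({y} : Set G3)) (RowCo3.mem_cent.2 hty)
      rw [h2] at h4
      exact (Nat.not_even_iff_odd.2 ho) (even_iff_two_dvd.2 h4)
    obtain ⟨c, hc⟩ := h1
    have hc1 : c ≠ 1 := by
      rintro rfl
      omega
    have hc2 : c ≠ 2 := by
      rintro rfl
      omega
    have hc0 : c ≠ 0 := by
      rintro rfl
      omega
    have hc3 : 3 ≤ c := by omega
    have := Nat.mul_le_mul_left (Nat.card ↥(centralizer ({y} : Set G3))) hc3
    omega
  · exact (RowCo3.odd_le (m := 69) ho (h.trans (dvd_of_eq (by norm_num))) (by norm_num)).trans (by norm_num)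
  · exact (RowCo3.odd_le (m := 21) ho (h.trans (dvd_of_eq (by norm_num))) (by norm_num)).trans (by norm_num)
  · exact (RowCo3.odd_le (m := 33) ho (h.trans (dvd_of_eq (by norm_num))) (by norm_num)).trans (by norm_num)

/-- **Centralizers of elements of prime order at least five in `Co₃`.** -/
theorem even_or_lt {L : Type u} [Group L] (h : Spor.IsoCo3 L) {y : L} (hy : (orderOf y).Prime) (h5 : 5 ≤ orderOf y) :
    Even (Nat.card ↥(centralizer ({y} : Set L))) ∨ 3 * Nat.card ↥(centralizer ({y} : Set L)) < 1024 := by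
  obtain ⟨e⟩ := RowCo3.equiv_G3 h
  rw [← RowCo3.centralizer_map e y]
  have ho : orderOf (e y) = orderOf y := e.orderOf_eq y
  have h5' : P5 (orderOf (e y)) := by
    rw [ho]
    rcases RowCo3.prime_cases hy (by rw [← ho]; exact orderOf_dvd_natCard (e y)) with h | h | h
    · omega
    · omega
    · exact h
  rcases even_or_le h5' with h | h
  · exact Or.inl h
  · right
    omega

end Cfsg.Agent.H143.Co3Five
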